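-- Team project OELM (S5990), package [R2O] (helper24): the case `r = 2`, `q` odd, assembled from
-- [MINUSQ], [INVOLM], [NEG3], [OM1M], [OM2MA], [OM2MB], [SCAL].
import Mathlib
import Cfsg.Agent.Lib.Helper58.OElm.Defs
import Cfsg.Agent.Lib.Helper55.OEll.Defs
import Cfsg.Agent.Lib.Helper70.OPar.Defs
import Cfsg.Agent.Lib.Helper8.OEll.Invol
import Cfsg.Agent.Lib.Helper52.OElp.Neg3
import Cfsg.Agent.Lib.Helper92.OParM.Om1M
import Cfsg.Agent.Lib.Helper92.OParM.Om2M
import Cfsg.Agent.Lib.Helper87.OParM.MinusQ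
import Cfsg.Agent.Lib.Helper45.OPar.Scal

set_option autoImplicit false
open scoped MatrixGroups
open Matrix

namespace Cfsg.Agent.Lib.Helper24.OElm

open Cfsg.Agent.Lib.Helper23.OHyp Cfsg.Agent.Lib.Helper44.OElp Cfsg.Agent.Lib.Helper64.OParM
  Cfsg.Agent.Lib.Helper58.OElm

universe u

/-- [R2O], from its ingredients -/
theorem pkgR2O_of (hInvol : Cfsg.Agent.Lib.Helper55.OEll.PkgInvolM.{u})
    (hN3 : PkgNeg3.{u}) (hOm1 : PkgOm1M.{u}) (hOm2A : PkgOm2MA.{u}) (hOm2B : PkgOm2MB.{u})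
    (hS : Cfsg.Agent.Lib.Helper70.OPar.PkgScal.{u}) (hMQ : PkgMinusQ.{u}) : PkgR2O.{u} := by
  intro F _ _ h2F k m a b hab hk hm2 hmev hmk
  obtain ⟨hQ, -⟩ := hMQ F h2F k a b hab
  obtain ⟨Q, hQdef⟩ : ∃ Q : (MI k → F) → F, Q = Cfsg.quadFormMinus k F a b := ⟨_, rfl⟩
  rw [← hQdef] at hQ ⊢
  have hne : Nonempty (MI k) := ⟨Sum.inr 0⟩
  have hcard : Fintype.card (MI k) = 2 * k + 2 := by
    simp
    omega
  have hqodd : Fintype.card F % 2 = 1 := by
    apply FiniteField.odd_card_of_char_ne_two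
    intro h
    apply h2F
    have h3 := CharP.cast_eq_zero F (ringChar F)
    rw [h] at h3
    exact_mod_cast h3
  have hmem_iso : ∀ x : GL (MI k) F, x ∈ Cfsg.Geo.omegaGL Q →
      x ∈ Cfsg.isometryGroup F Q := by
    intro x hx
    obtain ⟨y, -, rfl⟩ := Subgroup.mem_map.mp hx
    exact y.2
  have hiso : ∀ x : GL (MI k) F, x ∈ Cfsg.Geo.omegaGL Q →
      ∀ v, Q ((x : Matrix (MI k) (MI k) F) *ᵥ v) = Q v :=
    fun x hx v => hmem_iso x hx v v
  have hone : ∀ z : F, ((z • (1 : Matrix (MI k) (MI k) F)) *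
      (z • (1 : Matrix (MI k) (MI k) F))) =
      (z * z) • (1 : Matrix (MI k) (MI k) F) := by
    intro z
    rw [Matrix.smul_mul, Matrix.mul_smul, Matrix.one_mul, smul_smul]
  have hscal_inj : ∀ a b : F, a • (1 : Matrix (MI k) (MI k) F) =
      b • (1 : Matrix (MI k) (MI k) F) → a = b := by
    intro a b hab
    obtain ⟨i⟩ := hne
    have := congrFun (congrFun hab i) i
    simpa using this
  -- elements with square `-1` are not scalar
  have hnonscal : ∀ x : GL (MI k) F, x ∈ Cfsg.Geo.omegaGL Q →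
      (x : Matrix (MI k) (MI k) F) *
        (x : Matrix (MI k) (MI k) F) = -1 →
      ∀ z : F, (x : Matrix (MI k) (MI k) F) ≠
        z • (1 : Matrix (MI k) (MI k) F) := by
    intro x hxΩ hxx z hz
    have hzz : z * z = 1 := hS F (MI k) Q hQ z (by intro v; rw [← hz]; exact hiso x hxΩ v)
    rw [hz, hone, hzz, one_smul] at hxx
    have h3 : (1 : F) • (1 : Matrix (MI k) (MI k) F) =
        (-1 : F) • (1 : Matrix (MI k) (MI k) F) := by
      rw [one_smul, neg_one_smul]; exact hxx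
    have h11 := hscal_inj _ _ h3
    apply h2F
    linear_combination h11
  -- reduction to the elements with square `-1`
  have hred : AllFix Q m 2 ↔ ∀ x : GL (MI k) F, x ∈ Cfsg.Geo.omegaGL Q →
      (x : Matrix (MI k) (MI k) F) *
        (x : Matrix (MI k) (MI k) F) = -1 →
      ∃ W : Submodule F (MI k → F), (Module.finrank F ↥W = m ∧
        Cfsg.Geo.IsNondegenerateOn (QuadraticMap.polar Q) W ∧ ¬ Cfsg.Geo.IsPlusTypeOn Q W) ∧
        W.map (Matrix.toLin' (x : Matrix (MI k) (MI k) F)) ≤ W := by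
    constructor
    · intro h x hxΩ hxx
      exact h x hxΩ ⟨-1, by rw [neg_one_smul]; simpa [pow_two] using hxx⟩ (hnonscal x hxΩ hxx)
    · rintro h x hxΩ ⟨z, hz⟩ hns
      have hxi := hmem_iso x hxΩ
      have hxx : (x : Matrix (MI k) (MI k) F) *
          (x : Matrix (MI k) (MI k) F) =
          z • (1 : Matrix (MI k) (MI k) F) := by
        rw [← hz]; simp [pow_two]
      have hzz : z * z = 1 := hS F (MI k) Q hQ z (by
        intro v
        rw [← hxx, ← Matrix.mulVec_mulVec, hiso x hxΩ, hiso x hxΩ])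
      have hz1 : z = 1 ∨ z = -1 := by
        have : (z - 1) * (z + 1) = 0 := by linear_combination hzz
        rcases mul_eq_zero.mp this with h | h
        · left; linear_combination h
        · right; linear_combination h
      rcases hz1 with rfl | rfl
      · have hx2 : x ^ 2 = 1 := by
          apply Units.ext
          rw [hz, one_smul]; rfl
        exact hInvol F (MI k) Q hQ h2F x hxi hx2 m hmev hm2 (by rw [hcard]; omega)
      · exact h x hxΩ (by rw [hxx, neg_one_smul])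
  rw [hred]
  -- the cases where `Ω` has no element of square `-1`
  by_cases hvac : Odd k ∨ Fintype.card F % 8 ≠ 7
  · constructor
    · intro _
      rcases hvac with h | h
      · exact Or.inl h
      · exact Or.inr (Or.inl h)
    · intro _ x hxΩ hxx
      exfalso
      rw [hQdef] at hxΩ
      obtain ⟨hke, hq3⟩ := hOm2A F (Nat.odd_iff.mpr hqodd) k a b hab x hxΩ hxx
      rcases hvac with h | h
      · exact (Nat.not_even_iff_odd.mpr h) hke
      · exact hOm2B F (by omega) k hke a b hab x hxΩ hxx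
  · push Not at hvac
    obtain ⟨hke, hq7⟩ := hvac
    have hke' : Even k := Nat.not_odd_iff_even.mp hke
    have hns : ¬ IsSquare (-1 : F) := by
      rw [FiniteField.isSquare_neg_one_iff]
      omega
    have hTopNd : Nd Q ⊤ := by
      intro w _ hw
      obtain ⟨⟨y, hy⟩, ⟨y', hy'⟩⟩ := hQ.nondegenerate w hw
      exact ⟨⟨y, Submodule.mem_top, hy⟩, ⟨y', Submodule.mem_top, hy'⟩⟩
    have hTopDim : Module.finrank F (⊤ : Submodule F (MI k → F)) = 2 * k + 2 := by
      rw [finrank_top, Module.finrank_fintype_fun_eq_card, hcard]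
    constructor
    · intro h
      right; right
      by_contra hm4
      have h4 : 4 ∣ m := by
        obtain ⟨j, hj⟩ := hmev
        omega
      obtain ⟨x, hxΩ, hxx⟩ := hOm1 F hq7 k hke' a b hab
      rw [← hQdef] at hxΩ
      obtain ⟨W, ⟨hWd, hWnd, hWnp⟩, hWinv⟩ := h x hxΩ hxx
      have h5 := (hN3 F (MI k) Q hQ h2F hns _ (hiso x hxΩ) hxx W hWinv hWnd).1
      rw [hWd] at h5
      exact hWnp (h5.mpr h4)
    · intro hrhs
      have hm4 : m % 4 = 2 := by
        rcases hrhs with h | h | h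
        · exact absurd h hke
        · exact absurd hq7 h
        · exact h
      intro x hxΩ hxx
      obtain ⟨W', -, hW'inv, hW'nd, hW'dim⟩ :=
        (hN3 F (MI k) Q hQ h2F hns _ (hiso x hxΩ) hxx ⊤ le_top hTopNd).2 m hmev
          (by rw [hTopDim]; omega)
      refine ⟨W', ⟨hW'dim, hW'nd, ?_⟩, hW'inv⟩
      intro hplus
      have h5 := (hN3 F (MI k) Q hQ h2F hns _ (hiso x hxΩ) hxx W' hW'inv hW'nd).1.mp
        hplus
      rw [hW'dim] at h5
      omega

/-- [R2O], unconditional -/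
theorem pkgR2O : PkgR2O.{u} :=
  pkgR2O_of Cfsg.Agent.Lib.Helper8.OEll.pkgInvolM Cfsg.Agent.Lib.Helper52.OElp.pkgNeg3
    Cfsg.Agent.Lib.Helper92.OParM.pkgOm1M Cfsg.Agent.Lib.Helper92.OParM.pkgOm2MA
    Cfsg.Agent.Lib.Helper92.OParM.pkgOm2MB Cfsg.Agent.Lib.Helper45.OPar.pkgScal
    Cfsg.Agent.Lib.Helper87.OParM.pkgMinusQ

end Cfsg.Agent.Lib.Helper24.OElm
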